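-- Team project FOT (S3999): package [CNT] (helper75).
import Mathlib
import Cfsg.Agent.Lib.Helper50.FOT.Defs

set_option autoImplicit false
open scoped Pointwise

namespace Cfsg.Agent.Lib.Helper75.FOT

open Cfsg.Agent.Lib.Helper50.FOT

universe u

theorem orderOf_conj75 {X : Type u} [Group X] (a b : X) : orderOf (a * b * a⁻¹) = orderOf b :=
  (MulAut.conj a).orderOf_eq b

/-- [CNT] elements of order `m` prime to `|K|` in a Frobenius group. -/
theorem pkgCnt : Cfsg.Agent.Lib.Helper50.FOT.PkgCnt.{u} := by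
  intro X _ _ K C hFD m hm1 hmK
  haveI := hFD.normal
  have hdisj : ∀ z : X, z ∈ K → z ∈ C → z = 1 := by
    intro z hzK hzC
    exact (Subgroup.disjoint_def.mp hFD.compl.disjoint) hzK hzC
  let f : K × {y : C // orderOf y = m} → {x : X // orderOf x = m} := fun p =>
    ⟨(p.1 : X) * (p.2.1 : X) * (p.1 : X)⁻¹, by
      rw [orderOf_conj75, Subgroup.orderOf_coe]; exact p.2.2⟩
  have hinj : Function.Injective f := by
    rintro ⟨k, y, hy⟩ ⟨k', y', hy'⟩ h
    have h0 : (k : X) * (y : X) * (k : X)⁻¹ = (k' : X) * (y' : X) * (k' : X)⁻¹ :=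
      congrArg Subtype.val h
    set z : X := (k' : X)⁻¹ * (k : X) with hz
    have hzK : z ∈ K := K.mul_mem (K.inv_mem k'.2) k.2
    have h1 : z * (y : X) * z⁻¹ = (y' : X) := by
      have h9 : (k' : X)⁻¹ * ((k : X) * (y : X) * (k : X)⁻¹) * (k' : X) = (y' : X) := by
        rw [h0]; group
      rw [← h9, hz]; group
    have h2 : (y : X)⁻¹ * (y' : X) ∈ K := by
      rw [← h1]
      have h9 : (y : X)⁻¹ * (z * (y : X) * z⁻¹) = ((y : X)⁻¹ * z * ((y : X)⁻¹)⁻¹) * z⁻¹ := by
        group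
      rw [h9]
      exact K.mul_mem (hFD.normal.conj_mem z hzK _) (K.inv_mem hzK)
    have h3 : (y : X)⁻¹ * (y' : X) ∈ C := C.mul_mem (C.inv_mem y.2) y'.2
    have h4 : (y : X)⁻¹ * (y' : X) = 1 := hdisj _ h2 h3
    have h5 : (y : X) = (y' : X) := inv_mul_eq_one.mp h4
    have hy1 : (y : X) ≠ 1 := by
      intro h
      apply hm1
      rw [← hy, ← Subgroup.orderOf_coe, h, orderOf_one]
    have h6 : z * (y : X) = (y : X) * z := by
      rw [← h5] at h1
      calc z * (y : X) = (z * (y : X) * z⁻¹) * z := by group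
        _ = (y : X) * z := by rw [h1]
    have h7 : z = 1 := hFD.fpf (y : X) y.2 hy1 z hzK h6
    have h8 : (k' : X) = (k : X) := inv_mul_eq_one.mp h7
    have hk : k = k' := Subtype.ext h8.symm
    have hyy : y = y' := Subtype.ext h5
    subst hk
    subst hyy
    rfl
  have hsurj : Function.Surjective f := by
    rintro ⟨x, hx⟩
    have hxK : x ∉ K := by
      intro hxK
      have h1 : orderOf x ∣ Nat.card K := by
        have h9 := orderOf_dvd_natCard (⟨x, hxK⟩ : K)
        rwa [← Subgroup.orderOf_coe] at h9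
      rw [hx] at h1
      exact hm1 (Nat.Coprime.eq_one_of_dvd hmK h1)
    rcases hFD.cover x with h | ⟨g, hg⟩
    · exact absurd h hxK
    · rw [Subgroup.mem_pointwise_smul_iff_inv_smul_mem] at hg
      have hc : g⁻¹ * x * g ∈ C := by
        have h9 : (MulAut.conj g)⁻¹ • x = g⁻¹ * x * g := by
          rw [← map_inv, MulAut.smul_def, MulAut.conj_apply, inv_inv]
        rwa [h9] at hg
      obtain ⟨⟨k, c'⟩, hkc⟩ := hFD.compl.2 g
      have hkc' : (k : X) * (c' : X) = g := hkc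
      have hyC : (c' : X) * (g⁻¹ * x * g) * (c' : X)⁻¹ ∈ C :=
        C.mul_mem (C.mul_mem c'.2 hc) (C.inv_mem c'.2)
      have hyo : orderOf (⟨(c' : X) * (g⁻¹ * x * g) * (c' : X)⁻¹, hyC⟩ : C) = m := by
        rw [← Subgroup.orderOf_coe]
        change orderOf ((c' : X) * (g⁻¹ * x * g) * (c' : X)⁻¹) = m
        rw [orderOf_conj75]
        have h9 : g⁻¹ * x * g = g⁻¹ * x * (g⁻¹)⁻¹ := by rw [inv_inv]
        rw [h9, orderOf_conj75, hx]
      refine ⟨(⟨(k : X), k.2⟩, ⟨⟨(c' : X) * (g⁻¹ * x * g) * (c' : X)⁻¹, hyC⟩, hyo⟩), ?_⟩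
      apply Subtype.ext
      change (k : X) * ((c' : X) * (g⁻¹ * x * g) * (c' : X)⁻¹) * (k : X)⁻¹ = x
      rw [← hkc']
      group
  rw [← Nat.card_congr (Equiv.ofBijective f ⟨hinj, hsurj⟩), Nat.card_prod]

end Cfsg.Agent.Lib.Helper75.FOT
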